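import Cfsg.Agent.Lib.Helper19.Suzc.DataB

/-! Generated file: Todd–Coxeter certificate data and checks. -/

set_option autoImplicit false
set_option maxRecDepth 1000000

namespace Cfsg.Agent.Lib.Helper19.Suzc

open Cfsg.Agent.Lib.Helper19.TCS (evn evn_rot evn_rev evn_pair AllS forall_of_allS lift_rels mk_eq_lift cox_swap shapeI prod_rep index_of_equiv orbit_ncard orbit_image ncard_interval fix_of_closure RC)
open Cfsg.Agent.Lib.Helper19.TC2

theorem cl_0 : loop (chkCl cB sgw 1 417) 1 416 = true := by decide +kernel

theorem re_0 : loop (chkRe cB sgw tHP 16 65535 1) 2 415 = true := by decide +kernel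

theorem cl_1 : loop (chkCl cB sgw 417 1782) 417 1365 = true := by decide +kernel

theorem re_1 : loop (chkRe cB sgw tHP 16 65535 417) 418 1364 = true := by decide +kernel

end Cfsg.Agent.Lib.Helper19.Suzc
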