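import Cfsg.Agent.Lib.Helper19.PresSuz
import Cfsg.Agent.Lib.Helper19.TC2G
import Cfsg.Agent.Lib.Helper19.Suzc.ChkA0
import Cfsg.Agent.Lib.Helper19.Suzc.ChkA1
import Cfsg.Agent.Lib.Helper19.Suzc.ChkA2
import Cfsg.Agent.Lib.Helper19.Suzc.ChkA3
import Cfsg.Agent.Lib.Helper19.Suzc.ChkB0
import Cfsg.Agent.Lib.Helper19.Suzc.ChkB1
import Cfsg.Agent.Lib.Helper19.Suzc.ChkB2

/-! Generated file: Todd–Coxeter certificate data and checks. -/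

set_option autoImplicit false
set_option maxRecDepth 1000000

namespace Cfsg.Agent.Lib.Helper19.Suzc

open Cfsg.Agent.Lib.Helper19.TCS (evn evn_rot evn_rev evn_pair AllS forall_of_allS lift_rels mk_eq_lift cox_swap shapeI prod_rep index_of_equiv orbit_ncard orbit_image ncard_interval fix_of_closure RC)
open Cfsg.Agent.Lib.Helper19.TC2
open Cfsg.Spor Cfsg.Agent.Lib.Helper19.PresSuz
open Cfsg.Spor.Suz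


abbrev RS : Set (FreeGroup Gen) := coxRelators edges ∪ {r | r ∈ extra}

abbrev SS : Set (FreeGroup Gen) := {a, b, c, d, e, f}

abbrev HH : Subgroup Cfsg.Spor.Suz := (Subgroup.closure SS).map (PresentedGroup.mk RS)

def sg0 : List Gen := [.a]

theorem sl0 {K : Type*} [Group K] (φ : Gen → K) (hφ : ∀ x, φ x * φ x = 1) :
    FreeGroup.lift φ (a) = (sg0.map φ).prod := by
  simp [sg0]

theorem sgen0 : PresentedGroup.mk RS (a) = evn el (sg0.map num) := by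
  rw [evn_el, ← sl0 _ of_sq', mk_eq_lift]

theorem smem0 : evn el (sg0.map num) ∈ Subgroup.closure (PresentedGroup.mk RS '' SS) := by
  rw [← sgen0]
  exact Subgroup.subset_closure ⟨_, by simp [SS], rfl⟩

def sg1 : List Gen := [.b]

theorem sl1 {K : Type*} [Group K] (φ : Gen → K) (hφ : ∀ x, φ x * φ x = 1) :
    FreeGroup.lift φ (b) = (sg1.map φ).prod := by
  simp [sg1]

theorem sgen1 : PresentedGroup.mk RS (b) = evn el (sg1.map num) := by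
  rw [evn_el, ← sl1 _ of_sq', mk_eq_lift]

theorem smem1 : evn el (sg1.map num) ∈ Subgroup.closure (PresentedGroup.mk RS '' SS) := by
  rw [← sgen1]
  exact Subgroup.subset_closure ⟨_, by simp [SS], rfl⟩

def sg2 : List Gen := [.c]

theorem sl2 {K : Type*} [Group K] (φ : Gen → K) (hφ : ∀ x, φ x * φ x = 1) :
    FreeGroup.lift φ (c) = (sg2.map φ).prod := by
  simp [sg2]

theorem sgen2 : PresentedGroup.mk RS (c) = evn el (sg2.map num) := by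
  rw [evn_el, ← sl2 _ of_sq', mk_eq_lift]

theorem smem2 : evn el (sg2.map num) ∈ Subgroup.closure (PresentedGroup.mk RS '' SS) := by
  rw [← sgen2]
  exact Subgroup.subset_closure ⟨_, by simp [SS], rfl⟩

def sg3 : List Gen := [.d]

theorem sl3 {K : Type*} [Group K] (φ : Gen → K) (hφ : ∀ x, φ x * φ x = 1) :
    FreeGroup.lift φ (d) = (sg3.map φ).prod := by
  simp [sg3]

theorem sgen3 : PresentedGroup.mk RS (d) = evn el (sg3.map num) := by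
  rw [evn_el, ← sl3 _ of_sq', mk_eq_lift]

theorem smem3 : evn el (sg3.map num) ∈ Subgroup.closure (PresentedGroup.mk RS '' SS) := by
  rw [← sgen3]
  exact Subgroup.subset_closure ⟨_, by simp [SS], rfl⟩

def sg4 : List Gen := [.e]

theorem sl4 {K : Type*} [Group K] (φ : Gen → K) (hφ : ∀ x, φ x * φ x = 1) :
    FreeGroup.lift φ (e) = (sg4.map φ).prod := by
  simp [sg4]

theorem sgen4 : PresentedGroup.mk RS (e) = evn el (sg4.map num) := by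
  rw [evn_el, ← sl4 _ of_sq', mk_eq_lift]

theorem smem4 : evn el (sg4.map num) ∈ Subgroup.closure (PresentedGroup.mk RS '' SS) := by
  rw [← sgen4]
  exact Subgroup.subset_closure ⟨_, by simp [SS], rfl⟩

def sg5 : List Gen := [.f]

theorem sl5 {K : Type*} [Group K] (φ : Gen → K) (hφ : ∀ x, φ x * φ x = 1) :
    FreeGroup.lift φ (f) = (sg5.map φ).prod := by
  simp [sg5]

theorem sgen5 : PresentedGroup.mk RS (f) = evn el (sg5.map num) := by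
  rw [evn_el, ← sl5 _ of_sq', mk_eq_lift]

theorem smem5 : evn el (sg5.map num) ∈ Subgroup.closure (PresentedGroup.mk RS '' SS) := by
  rw [← sgen5]
  exact Subgroup.subset_closure ⟨_, by simp [SS], rfl⟩

theorem hH : HH = Subgroup.closure (PresentedGroup.mk RS '' SS) := MonoidHom.map_closure _ _

theorem hsel : ∀ k < cert.LS.length, (sel cert.LS k).1 = k := by decide

theorem lf0 : (∀ p ∈ W0, p ∈ cert.LS) ∧ ev el W0 = 1 :=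
  leaf_ok cert el hsel [6, 6] W0 rfl (by decide) (evn_pair el el_sq 6)

theorem lf1 : (∀ p ∈ W1, p ∈ cert.LS) ∧ ev el W1 = 1 :=
  leaf_ok cert el hsel [0, 6, 0, 6] W1 rfl (by decide) (cox_one 0 6)

theorem lf2 : (∀ p ∈ W2, p ∈ cert.LS) ∧ ev el W2 = 1 :=
  leaf_ok cert el hsel [2, 6, 2, 6] W2 rfl (by decide) (cox_one 2 6)

theorem lf3 : (∀ p ∈ W3, p ∈ cert.LS) ∧ ev el W3 = 1 :=
  leaf_ok cert el hsel [3, 6, 3, 6] W3 rfl (by decide) (cox_one 3 6)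

theorem lf4 : (∀ p ∈ W4, p ∈ cert.LS) ∧ ev el W4 = 1 :=
  leaf_ok cert el hsel [4, 6, 4, 6] W4 rfl (by decide) (cox_one 4 6)

theorem lf5 : (∀ p ∈ W5, p ∈ cert.LS) ∧ ev el W5 = 1 :=
  leaf_ok cert el hsel [5, 6, 5, 0, 6] W5 rfl (by decide) (evn_rot el [0, 6] [5, 6, 5] xg1_one)

theorem lf6 : (∀ p ∈ W6, p ∈ cert.LS) ∧ ev el W6 = 1 :=
  leaf_ok cert el hsel [1, 1] W6 rfl (by decide) (evn_pair el el_sq 1)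

theorem lf7 : (∀ p ∈ W7, p ∈ cert.LS) ∧ ev el W7 = 1 :=
  leaf_ok cert el hsel [3, 1, 3, 1] W7 rfl (by decide) (cox_one 3 1)

theorem lf8 : (∀ p ∈ W8, p ∈ cert.LS) ∧ ev el W8 = 1 :=
  leaf_ok cert el hsel [4, 1, 4, 1] W8 rfl (by decide) (cox_one 4 1)

theorem lf9 : (∀ p ∈ W9, p ∈ cert.LS) ∧ ev el W9 = 1 :=
  leaf_ok cert el hsel [6, 1, 6, 1, 6, 1] W9 rfl (by decide) (cox_one 6 1)

theorem lf10 : (∀ p ∈ W10, p ∈ cert.LS) ∧ ev el W10 = 1 :=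
  leaf_ok cert el hsel [0, 0] W10 rfl (by decide) (evn_pair el el_sq 0)

theorem lf11 : (∀ p ∈ W11, p ∈ cert.LS) ∧ ev el W11 = 1 :=
  leaf_ok cert el hsel [3, 0, 3, 0] W11 rfl (by decide) (cox_one 3 0)

theorem lf12 : (∀ p ∈ W12, p ∈ cert.LS) ∧ ev el W12 = 1 :=
  leaf_ok cert el hsel [4, 0, 4, 0] W12 rfl (by decide) (cox_one 4 0)

theorem lf13 : (∀ p ∈ W13, p ∈ cert.LS) ∧ ev el W13 = 1 :=
  leaf_ok cert el hsel [6, 0, 6, 0] W13 rfl (by decide) (cox_one 6 0)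

theorem lf14 : (∀ p ∈ W14, p ∈ cert.LS) ∧ ev el W14 = 1 :=
  leaf_ok cert el hsel [2, 2] W14 rfl (by decide) (evn_pair el el_sq 2)

theorem lf15 : (∀ p ∈ W15, p ∈ cert.LS) ∧ ev el W15 = 1 :=
  leaf_ok cert el hsel [4, 2, 4, 2] W15 rfl (by decide) (cox_one 4 2)

theorem lf16 : (∀ p ∈ W16, p ∈ cert.LS) ∧ ev el W16 = 1 :=
  leaf_ok cert el hsel [6, 2, 6, 2] W16 rfl (by decide) (cox_one 6 2)

theorem lf17 : (∀ p ∈ W17, p ∈ cert.LS) ∧ ev el W17 = 1 :=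
  leaf_ok cert el hsel [1, 2, 1, 2, 1, 2] W17 rfl (by decide) (cox_one 1 2)

theorem lf18 : (∀ p ∈ W18, p ∈ cert.LS) ∧ ev el W18 = 1 :=
  leaf_ok cert el hsel [5, 5] W18 rfl (by decide) (evn_pair el el_sq 5)

theorem lf19 : (∀ p ∈ W19, p ∈ cert.LS) ∧ ev el W19 = 1 :=
  leaf_ok cert el hsel [3, 5, 3, 5] W19 rfl (by decide) (cox_one 3 5)

theorem lf20 : (∀ p ∈ W20, p ∈ cert.LS) ∧ ev el W20 = 1 :=
  leaf_ok cert el hsel [4, 5, 4, 5] W20 rfl (by decide) (cox_one 4 5)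

theorem lf21 : (∀ p ∈ W21, p ∈ cert.LS) ∧ ev el W21 = 1 :=
  leaf_ok cert el hsel [1, 5, 1, 5, 1, 5] W21 rfl (by decide) (cox_one 1 5)

theorem lf22 : (∀ p ∈ W22, p ∈ cert.LS) ∧ ev el W22 = 1 :=
  leaf_ok cert el hsel [0, 2, 0, 2] W22 rfl (by decide) (cox_one 0 2)

theorem lf23 : (∀ p ∈ W23, p ∈ cert.LS) ∧ ev el W23 = 1 :=
  leaf_ok cert el hsel [0, 5, 0, 5] W23 rfl (by decide) (cox_one 0 5)

theorem lf24 : (∀ p ∈ W24, p ∈ cert.LS) ∧ ev el W24 = 1 :=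
  leaf_ok cert el hsel [6, 5, 0, 6, 5] W24 rfl (by decide) (evn_rot el [0, 6, 5] [6, 5] xg1_one)

theorem lf25 : (∀ p ∈ W25, p ∈ cert.LS) ∧ ev el W25 = 1 :=
  leaf_ok cert el hsel [6, 5, 1, 6, 5, 1, 6, 5, 1, 6, 5, 1, 6, 5, 1] W25 rfl (by decide) (evn_rot el [] [6, 5, 1, 6, 5, 1, 6, 5, 1, 6, 5, 1, 6, 5, 1] (evn_rev el el_sq _ xg3_one))

theorem lf26 : (∀ p ∈ W26, p ∈ cert.LS) ∧ ev el W26 = 1 :=
  leaf_ok cert el hsel [3, 3] W26 rfl (by decide) (evn_pair el el_sq 3)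

theorem lf27 : (∀ p ∈ W27, p ∈ cert.LS) ∧ ev el W27 = 1 :=
  leaf_ok cert el hsel [1, 3, 1, 3] W27 rfl (by decide) (cox_one 1 3)

theorem lf28 : (∀ p ∈ W28, p ∈ cert.LS) ∧ ev el W28 = 1 :=
  leaf_ok cert el hsel [6, 3, 6, 3] W28 rfl (by decide) (cox_one 6 3)

theorem lf29 : (∀ p ∈ W29, p ∈ cert.LS) ∧ ev el W29 = 1 :=
  leaf_ok cert el hsel [2, 5, 2, 5] W29 rfl (by decide) (cox_one 2 5)

theorem lf30 : (∀ p ∈ W30, p ∈ cert.LS) ∧ ev el W30 = 1 :=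
  leaf_ok cert el hsel [5, 2, 5, 2] W30 rfl (by decide) (cox_one 5 2)

theorem lf31 : (∀ p ∈ W31, p ∈ cert.LS) ∧ ev el W31 = 1 :=
  leaf_ok cert el hsel [0, 3, 0, 3] W31 rfl (by decide) (cox_one 0 3)

theorem lf32 : (∀ p ∈ W32, p ∈ cert.LS) ∧ ev el W32 = 1 :=
  leaf_ok cert el hsel [4, 4] W32 rfl (by decide) (evn_pair el el_sq 4)

theorem lf33 : (∀ p ∈ W33, p ∈ cert.LS) ∧ ev el W33 = 1 :=
  leaf_ok cert el hsel [1, 4, 1, 4] W33 rfl (by decide) (cox_one 1 4)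

theorem lf34 : (∀ p ∈ W34, p ∈ cert.LS) ∧ ev el W34 = 1 :=
  leaf_ok cert el hsel [6, 4, 6, 4] W34 rfl (by decide) (cox_one 6 4)

theorem lf35 : (∀ p ∈ W35, p ∈ cert.LS) ∧ ev el W35 = 1 :=
  leaf_ok cert el hsel [3, 4, 3, 4, 3, 4] W35 rfl (by decide) (cox_one 3 4)

theorem lf36 : (∀ p ∈ W36, p ∈ cert.LS) ∧ ev el W36 = 1 :=
  leaf_ok cert el hsel [2, 1, 2, 1, 2, 1] W36 rfl (by decide) (cox_one 2 1)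

theorem lf37 : (∀ p ∈ W37, p ∈ cert.LS) ∧ ev el W37 = 1 :=
  leaf_ok cert el hsel [5, 1, 5, 1, 5, 1] W37 rfl (by decide) (cox_one 5 1)

theorem lf38 : (∀ p ∈ W38, p ∈ cert.LS) ∧ ev el W38 = 1 :=
  leaf_ok cert el hsel [0, 1, 2, 5, 0, 1, 2, 5, 0, 1, 2, 5, 0, 1, 2, 5, 0, 1, 2, 5] W38 rfl (by decide) (evn_rot el [] [0, 1, 2, 5, 0, 1, 2, 5, 0, 1, 2, 5, 0, 1, 2, 5, 0, 1, 2, 5] xg2_one)

theorem lf39 : (∀ p ∈ W39, p ∈ cert.LS) ∧ ev el W39 = 1 :=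
  leaf_ok cert el hsel [5, 3, 5, 3] W39 rfl (by decide) (cox_one 5 3)

theorem lf40 : (∀ p ∈ W40, p ∈ cert.LS) ∧ ev el W40 = 1 :=
  leaf_ok cert el hsel [1, 6, 1, 6, 1, 6] W40 rfl (by decide) (cox_one 1 6)

theorem lf41 : (∀ p ∈ W41, p ∈ cert.LS) ∧ ev el W41 = 1 :=
  leaf_ok cert el hsel [3, 2, 3, 2, 3, 2, 0, 3, 2] W41 rfl (by decide) (evn_rot el [0, 3, 2] [3, 2, 3, 2, 3, 2] xg0_one)

theorem lf42 : (∀ p ∈ W42, p ∈ cert.LS) ∧ ev el W42 = 1 :=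
  leaf_ok cert el hsel [0, 4, 0, 4] W42 rfl (by decide) (cox_one 0 4)

theorem lf43 : (∀ p ∈ W43, p ∈ cert.LS) ∧ ev el W43 = 1 :=
  leaf_ok cert el hsel [2, 4, 2, 4] W43 rfl (by decide) (cox_one 2 4)

theorem lf44 : (∀ p ∈ W44, p ∈ cert.LS) ∧ ev el W44 = 1 :=
  leaf_ok cert el hsel [2, 0, 2, 0] W44 rfl (by decide) (cox_one 2 0)

theorem lf45 : (∀ p ∈ W45, p ∈ cert.LS) ∧ ev el W45 = 1 :=
  leaf_ok cert el hsel [6, 1, 5, 6, 1, 5, 6, 1, 5, 6, 1, 5, 6, 1, 5] W45 rfl (by decide) (evn_rot el [1, 5] [6, 1, 5, 6, 1, 5, 6, 1, 5, 6, 1, 5, 6] xg3_one)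

theorem lf46 : (∀ p ∈ W46, p ∈ cert.LS) ∧ ev el W46 = 1 :=
  leaf_ok cert el hsel [6, 5, 6, 5, 0] W46 rfl (by decide) (evn_rot el [0] [6, 5, 6, 5] xg1_one)

theorem lf47 : (∀ p ∈ W47, p ∈ cert.LS) ∧ ev el W47 = 1 :=
  leaf_ok cert el hsel [5, 4, 5, 4] W47 rfl (by decide) (cox_one 5 4)

theorem lf48 : (∀ p ∈ W48, p ∈ cert.LS) ∧ ev el W48 = 1 :=
  leaf_ok cert el hsel [0, 1, 0, 1, 0, 1, 0, 1, 0, 1] W48 rfl (by decide) (cox_one 0 1)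

theorem lf49 : (∀ p ∈ W49, p ∈ cert.LS) ∧ ev el W49 = 1 :=
  leaf_ok cert el hsel [4, 3, 4, 3, 4, 3] W49 rfl (by decide) (cox_one 4 3)

theorem lf50 : (∀ p ∈ W50, p ∈ cert.LS) ∧ ev el W50 = 1 :=
  leaf_ok cert el hsel [2, 3, 2, 3, 2, 3, 2, 0, 3] W50 rfl (by decide) (evn_rot el [0, 3] [2, 3, 2, 3, 2, 3, 2] xg0_one)

theorem lf51 : (∀ p ∈ W51, p ∈ cert.LS) ∧ ev el W51 = 1 :=
  leaf_ok cert el hsel [5, 0, 5, 0] W51 rfl (by decide) (cox_one 5 0)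

theorem lf52 : (∀ p ∈ W52, p ∈ cert.LS) ∧ ev el W52 = 1 :=
  leaf_ok cert el hsel [1, 0, 1, 0, 1, 0, 1, 0, 1, 0] W52 rfl (by decide) (cox_one 1 0)

theorem lf53 : (∀ p ∈ W53, p ∈ cert.LS) ∧ ev el W53 = 1 :=
  leaf_ok cert el hsel [2, 3, 2, 3, 2, 3, 2, 3, 0] W53 rfl (by decide) (evn_rot el [] [2, 3, 2, 3, 2, 3, 2, 3, 0] (evn_rev el el_sq _ xg0_one))

theorem lf54 : (∀ p ∈ W54, p ∈ cert.LS) ∧ ev el W54 = 1 :=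
  leaf_ok cert el hsel [5, 0, 1, 2, 5, 0, 1, 2, 5, 0, 1, 2, 5, 0, 1, 2, 5, 0, 1, 2] W54 rfl (by decide) (evn_rot el [0, 1, 2] [5, 0, 1, 2, 5, 0, 1, 2, 5, 0, 1, 2, 5, 0, 1, 2, 5] xg2_one)

theorem lf55 : (∀ p ∈ W55, p ∈ cert.LS) ∧ ev el W55 = 1 :=
  leaf_ok cert el hsel [2, 3, 2, 0, 3, 2, 3, 2, 3] W55 rfl (by decide) (evn_rot el [0, 3, 2, 3, 2, 3] [2, 3, 2] xg0_one)

theorem lf56 : (∀ p ∈ W56, p ∈ cert.LS) ∧ ev el W56 = 1 :=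
  leaf_ok cert el hsel [5, 2, 1, 0, 5, 2, 1, 0, 5, 2, 1, 0, 5, 2, 1, 0, 5, 2, 1, 0] W56 rfl (by decide) (evn_rot el [] [5, 2, 1, 0, 5, 2, 1, 0, 5, 2, 1, 0, 5, 2, 1, 0, 5, 2, 1, 0] (evn_rev el el_sq _ xg2_one))

theorem lf57 : (∀ p ∈ W57, p ∈ cert.LS) ∧ ev el W57 = 1 :=
  leaf_ok cert el hsel [2, 1, 0, 5, 2, 1, 0, 5, 2, 1, 0, 5, 2, 1, 0, 5, 2, 1, 0, 5] W57 rfl (by decide) (evn_rot el [5] [2, 1, 0, 5, 2, 1, 0, 5, 2, 1, 0, 5, 2, 1, 0, 5, 2, 1, 0] (evn_rev el el_sq _ xg2_one))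

theorem lf58 : (∀ p ∈ W58, p ∈ cert.LS) ∧ ev el W58 = 1 :=
  leaf_ok cert el hsel [1, 6, 5, 1, 6, 5, 1, 6, 5, 1, 6, 5, 1, 6, 5] W58 rfl (by decide) (evn_rot el [6, 5] [1, 6, 5, 1, 6, 5, 1, 6, 5, 1, 6, 5, 1] (evn_rev el el_sq _ xg3_one))

theorem lf59 : (∀ p ∈ W59, p ∈ cert.LS) ∧ ev el W59 = 1 :=
  leaf_ok cert el hsel [5, 6, 1, 5, 6, 1, 5, 6, 1, 5, 6, 1, 5, 6, 1] W59 rfl (by decide) (evn_rot el [1] [5, 6, 1, 5, 6, 1, 5, 6, 1, 5, 6, 1, 5, 6] xg3_one)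

theorem lf60 : (∀ p ∈ W60, p ∈ cert.LS) ∧ ev el W60 = 1 :=
  leaf_ok cert el hsel [1, 5, 6, 1, 5, 6, 1, 5, 6, 1, 5, 6, 1, 5, 6] W60 rfl (by decide) (evn_rot el [] [1, 5, 6, 1, 5, 6, 1, 5, 6, 1, 5, 6, 1, 5, 6] xg3_one)

theorem lf61 : (∀ p ∈ W61, p ∈ cert.LS) ∧ ev el W61 = 1 :=
  leaf_ok cert el hsel [1, 0, 5, 2, 1, 0, 5, 2, 1, 0, 5, 2, 1, 0, 5, 2, 1, 0, 5, 2] W61 rfl (by decide) (evn_rot el [5, 2] [1, 0, 5, 2, 1, 0, 5, 2, 1, 0, 5, 2, 1, 0, 5, 2, 1, 0] (evn_rev el el_sq _ xg2_one))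

theorem lf62 : (∀ p ∈ W62, p ∈ cert.LS) ∧ ev el W62 = 1 :=
  leaf_ok cert el hsel [6, 5, 6, 0, 5] W62 rfl (by decide) (evn_rot el [5] [6, 5, 6, 0] (evn_rev el el_sq _ xg1_one))

theorem lf63 : (∀ p ∈ W63, p ∈ cert.LS) ∧ ev el W63 = 1 :=
  leaf_ok cert el hsel [5, 6, 5, 6, 0] W63 rfl (by decide) (evn_rot el [] [5, 6, 5, 6, 0] (evn_rev el el_sq _ xg1_one))

theorem lf64 : (∀ p ∈ W64, p ∈ cert.LS) ∧ ev el W64 = 1 :=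
  leaf_ok cert el hsel [5, 1, 6, 5, 1, 6, 5, 1, 6, 5, 1, 6, 5, 1, 6] W64 rfl (by decide) (evn_rot el [6] [5, 1, 6, 5, 1, 6, 5, 1, 6, 5, 1, 6, 5, 1] (evn_rev el el_sq _ xg3_one))

theorem lf65 : (∀ p ∈ W65, p ∈ cert.LS) ∧ ev el W65 = 1 :=
  leaf_ok cert el hsel [2, 5, 0, 1, 2, 5, 0, 1, 2, 5, 0, 1, 2, 5, 0, 1, 2, 5, 0, 1] W65 rfl (by decide) (evn_rot el [0, 1] [2, 5, 0, 1, 2, 5, 0, 1, 2, 5, 0, 1, 2, 5, 0, 1, 2, 5] xg2_one)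

theorem lf66 : (∀ p ∈ W66, p ∈ cert.LS) ∧ ev el W66 = 1 :=
  leaf_ok cert el hsel [0, 5, 6, 5, 6] W66 rfl (by decide) (evn_rot el [5, 6, 5, 6] [0] (evn_rev el el_sq _ xg1_one))

theorem lf67 : (∀ p ∈ W67, p ∈ cert.LS) ∧ ev el W67 = 1 :=
  leaf_ok cert el hsel [6, 0, 5, 6, 5] W67 rfl (by decide) (evn_rot el [5, 6, 5] [6, 0] (evn_rev el el_sq _ xg1_one))

theorem lf68 : (∀ p ∈ W68, p ∈ cert.LS) ∧ ev el W68 = 1 :=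
  leaf_ok cert el hsel [0, 6, 5, 6, 5] W68 rfl (by decide) (evn_rot el [] [0, 6, 5, 6, 5] xg1_one)

theorem lf69 : (∀ p ∈ W69, p ∈ cert.LS) ∧ ev el W69 = 1 :=
  leaf_ok cert el hsel [3, 2, 3, 2, 3, 2, 3, 0, 2] W69 rfl (by decide) (evn_rot el [2] [3, 2, 3, 2, 3, 2, 3, 0] (evn_rev el el_sq _ xg0_one))

theorem lf70 : (∀ p ∈ W70, p ∈ cert.LS) ∧ ev el W70 = 1 :=
  leaf_ok cert el hsel [0, 3, 2, 3, 2, 3, 2, 3, 2] W70 rfl (by decide) (evn_rot el [] [0, 3, 2, 3, 2, 3, 2, 3, 2] xg0_one)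

theorem lf71 : (∀ p ∈ W71, p ∈ cert.LS) ∧ ev el W71 = 1 :=
  leaf_ok cert el hsel [2, 0, 3, 2, 3, 2, 3, 2, 3] W71 rfl (by decide) (evn_rot el [0, 3, 2, 3, 2, 3, 2, 3] [2] xg0_one)

theorem lf72 : (∀ p ∈ W72, p ∈ cert.LS) ∧ ev el W72 = 1 :=
  leaf_ok cert el hsel [0, 2, 3, 2, 3, 2, 3, 2, 3] W72 rfl (by decide) (evn_rot el [2, 3, 2, 3, 2, 3, 2, 3] [0] (evn_rev el el_sq _ xg0_one))

theorem lf73 : (∀ p ∈ W73, p ∈ cert.LS) ∧ ev el W73 = 1 :=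
  leaf_ok cert el hsel [3, 2, 3, 2, 3, 0, 2, 3, 2] W73 rfl (by decide) (evn_rot el [2, 3, 2] [3, 2, 3, 2, 3, 0] (evn_rev el el_sq _ xg0_one))

theorem lf74 : (∀ p ∈ W74, p ∈ cert.LS) ∧ ev el W74 = 1 :=
  leaf_ok cert el hsel [3, 2, 3, 2, 3, 2, 3, 2, 0] W74 rfl (by decide) (evn_rot el [0] [3, 2, 3, 2, 3, 2, 3, 2] xg0_one)

theorem lf75 : (∀ p ∈ W75, p ∈ cert.LS) ∧ ev el W75 = 1 :=
  leaf_ok cert el hsel [3, 2, 1, 3, 2, 3, 2, 1, 3, 2, 3, 2, 1, 4, 3, 2, 3, 2, 1, 3, 2, 3, 2, 1, 3, 2, 3, 2, 1, 3, 2, 3, 2, 1, 3, 2, 3, 2, 1, 4, 3, 2, 3, 2, 1, 3, 2, 3, 2, 1, 3, 2, 3, 2, 1, 3, 2, 3, 2, 1, 3, 2, 3, 2, 1, 4, 3, 2, 3, 2, 1, 3, 2, 3, 2, 1, 3, 2] W75 rfl (by decide) (evn_rot el [4, 3, 2, 3, 2, 1, 3, 2, 3, 2, 1, 3, 2] [3, 2, 1, 3, 2, 3, 2, 1, 3, 2, 3, 2, 1, 4, 3, 2, 3, 2, 1, 3, 2, 3, 2, 1, 3, 2, 3, 2, 1, 3,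 2, 3, 2, 1, 3, 2, 3, 2, 1, 4, 3, 2, 3, 2, 1, 3, 2, 3, 2, 1, 3, 2, 3, 2, 1, 3, 2, 3, 2, 1, 3, 2, 3, 2, 1] (evn_rev el el_sq _ xg4_one))

theorem lf76 : (∀ p ∈ W76, p ∈ cert.LS) ∧ ev el W76 = 1 :=
  leaf_ok cert el hsel [3, 2, 3, 0, 2, 3, 2, 3, 2] W76 rfl (by decide) (evn_rot el [2, 3, 2, 3, 2] [3, 2, 3, 0] (evn_rev el el_sq _ xg0_one))

theorem lf77 : (∀ p ∈ W77, p ∈ cert.LS) ∧ ev el W77 = 1 :=
  leaf_ok cert el hsel [4, 1, 2, 3, 2, 3, 1, 2, 3, 2, 3, 1, 2, 3, 2, 3, 1, 2, 3, 2, 3, 1, 2, 3, 2, 3, 4, 1, 2, 3, 2, 3, 1, 2, 3, 2, 3, 1, 2, 3, 2, 3, 1, 2, 3, 2, 3, 1, 2, 3, 2, 3, 4, 1, 2, 3, 2, 3, 1, 2, 3, 2, 3, 1, 2, 3, 2, 3, 1, 2, 3, 2, 3, 1, 2, 3, 2, 3] W77 rfl (by decide) (evn_rot el [1, 2, 3, 2, 3, 1, 2, 3, 2, 3, 1, 2, 3, 2, 3, 1, 2, 3, 2, 3, 1, 2, 3, 2, 3] [4, 1, 2, 3, 2, 3, 1, 2, 3, 2, 3, 1, 2,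 3, 2, 3, 1, 2, 3, 2, 3, 1, 2, 3, 2, 3, 4, 1, 2, 3, 2, 3, 1, 2, 3, 2, 3, 1, 2, 3, 2, 3, 1, 2, 3, 2, 3, 1, 2, 3, 2, 3, 4] xg4_one)

theorem lf78 : (∀ p ∈ W78, p ∈ cert.LS) ∧ ev el W78 = 1 :=
  leaf_ok cert el hsel [5, 0, 6, 5, 6] W78 rfl (by decide) (evn_rot el [0, 6, 5, 6] [5] xg1_one)

theorem lf79 : (∀ p ∈ W79, p ∈ cert.LS) ∧ ev el W79 = 1 :=
  leaf_ok cert el hsel [0, 5, 2, 1, 0, 5, 2, 1, 0, 5, 2, 1, 0, 5, 2, 1, 0, 5, 2, 1] W79 rfl (by decide) (evn_rot el [5, 2, 1] [0, 5, 2, 1, 0, 5, 2, 1, 0, 5, 2, 1, 0, 5, 2, 1, 0] (evn_rev el el_sq _ xg2_one))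

theorem lf80 : (∀ p ∈ W80, p ∈ cert.LS) ∧ ev el W80 = 1 :=
  leaf_ok cert el hsel [1, 2, 5, 0, 1, 2, 5, 0, 1, 2, 5, 0, 1, 2, 5, 0, 1, 2, 5, 0] W80 rfl (by decide) (evn_rot el [0] [1, 2, 5, 0, 1, 2, 5, 0, 1, 2, 5, 0, 1, 2, 5, 0, 1, 2, 5] xg2_one)

theorem lf81 : (∀ p ∈ W81, p ∈ cert.LS) ∧ ev el W81 = 1 :=
  leaf_ok cert el hsel [3, 2, 0, 3, 2, 3, 2, 3, 2] W81 rfl (by decide) (evn_rot el [0, 3, 2, 3, 2, 3, 2] [3, 2] xg0_one)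

theorem lf82 : (∀ p ∈ W82, p ∈ cert.LS) ∧ ev el W82 = 1 :=
  leaf_ok cert el hsel [3, 1, 2, 3, 2, 3, 4, 1, 2, 3, 2, 3, 1, 2, 3, 2, 3, 1, 2, 3, 2, 3, 1, 2, 3, 2, 3, 1, 2, 3, 2, 3, 4, 1, 2, 3, 2, 3, 1, 2, 3, 2, 3, 1, 2, 3, 2, 3, 1, 2, 3, 2, 3, 1, 2, 3, 2, 3, 4, 1, 2, 3, 2, 3, 1, 2, 3, 2, 3, 1, 2, 3, 2, 3, 1, 2, 3, 2] W82 rfl (by decide) (evn_rot el [1, 2, 3, 2, 3, 1, 2, 3, 2, 3, 1, 2, 3, 2, 3, 1, 2, 3, 2] [3, 1, 2, 3, 2, 3, 4, 1, 2, 3, 2, 3, 1, 2, 3, 2, 3, 1, 2, 3, 2, 3, 1, 2, 3, 2, 3, 1, 2, 3, 2, 3, 4, 1, 2, 3, 2, 3, 1, 2, 3, 2, 3, 1, 2, 3, 2, 3, 1, 2, 3, 2, 3, 1, 2, 3, 2, 3, 4] xg4_one)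

theorem lf83 : (∀ p ∈ W83, p ∈ cert.LS) ∧ ev el W83 = 1 :=
  leaf_ok cert el hsel [2, 3, 2, 3, 1, 2, 3, 2, 3, 1, 2, 3, 2, 3, 4, 1, 2, 3, 2, 3, 1, 2, 3, 2, 3, 1, 2, 3, 2, 3, 1, 2, 3, 2, 3, 1, 2, 3, 2, 3, 4, 1, 2, 3, 2, 3, 1, 2, 3, 2, 3, 1, 2, 3, 2, 3, 1, 2, 3, 2, 3, 1, 2, 3, 2, 3, 4, 1, 2, 3, 2, 3, 1, 2, 3, 2, 3, 1] W83 rfl (by decide) (evn_rot el [1, 2, 3, 2, 3, 1, 2, 3, 2, 3, 1] [2, 3, 2, 3, 1, 2, 3, 2, 3, 1, 2, 3, 2, 3, 4, 1, 2, 3, 2, 3, 1, 2, 3, 2, 3, 1, 2, 3, 2, 3, 1, 2, 3, 2, 3, 1, 2, 3, 2, 3, 4, 1, 2, 3, 2, 3, 1, 2, 3, 2, 3, 1, 2, 3, 2, 3, 1, 2, 3, 2, 3, 1, 2, 3, 2, 3, 4] xg4_one)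

theorem lf84 : (∀ p ∈ W84, p ∈ cert.LS) ∧ ev el W84 = 1 :=
  leaf_ok cert el hsel [2, 3, 2, 3, 1, 2, 3, 2, 3, 4, 1, 2, 3, 2, 3, 1, 2, 3, 2, 3, 1, 2, 3, 2, 3, 1, 2, 3, 2, 3, 1, 2, 3, 2, 3, 4, 1, 2, 3, 2, 3, 1, 2, 3, 2, 3, 1, 2, 3, 2, 3, 1, 2, 3, 2, 3, 1, 2, 3, 2, 3, 4, 1, 2, 3, 2, 3, 1, 2, 3, 2, 3, 1, 2, 3, 2, 3, 1] W84 rfl (by decide) (evn_rot el [1, 2, 3, 2, 3, 1, 2, 3, 2, 3, 1, 2, 3, 2, 3, 1] [2, 3, 2, 3, 1, 2, 3, 2, 3, 4, 1, 2, 3, 2, 3, 1, 2, 3, 2, 3, 1, 2, 3, 2, 3, 1, 2, 3, 2, 3, 1, 2, 3, 2, 3, 4, 1, 2, 3, 2, 3, 1, 2, 3, 2, 3, 1, 2, 3, 2, 3, 1, 2, 3, 2, 3, 1, 2, 3, 2, 3, 4] xg4_one)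

theorem lf85 : (∀ p ∈ W85, p ∈ cert.LS) ∧ ev el W85 = 1 :=
  leaf_ok cert el hsel [1, 2, 3, 2, 3, 1, 2, 3, 2, 3, 1, 2, 3, 2, 3, 1, 2, 3, 2, 3, 1, 2, 3, 2, 3, 4, 1, 2, 3, 2, 3, 1, 2, 3, 2, 3, 1, 2, 3, 2, 3, 1, 2, 3, 2, 3, 1, 2, 3, 2, 3, 4, 1, 2, 3, 2, 3, 1, 2, 3, 2, 3, 1, 2, 3, 2, 3, 1, 2, 3, 2, 3, 1, 2, 3, 2, 3, 4] W85 rfl (by decide) (evn_rot el [] [1, 2, 3, 2, 3, 1, 2, 3, 2, 3, 1, 2, 3, 2, 3, 1, 2, 3, 2, 3, 1, 2, 3, 2, 3, 4, 1, 2, 3, 2, 3, 1, 2, 3, 2, 3, 1, 2, 3, 2, 3, 1, 2, 3, 2, 3, 1, 2, 3, 2, 3, 4, 1, 2, 3, 2, 3, 1, 2, 3, 2, 3, 1, 2, 3, 2, 3, 1, 2, 3, 2, 3, 1, 2, 3, 2, 3, 4] xg4_one)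

theorem lf86 : (∀ p ∈ W86, p ∈ cert.LS) ∧ ev el W86 = 1 :=
  leaf_ok cert el hsel [2, 3, 1, 2, 3, 2, 3, 1, 2, 3, 2, 3, 1, 2, 3, 2, 3, 1, 2, 3, 2, 3, 4, 1, 2, 3, 2, 3, 1, 2, 3, 2, 3, 1, 2, 3, 2, 3, 1, 2, 3, 2, 3, 1, 2, 3, 2, 3, 4, 1, 2, 3, 2, 3, 1, 2, 3, 2, 3, 1, 2, 3, 2, 3, 1, 2, 3, 2, 3, 1, 2, 3, 2, 3, 4, 1, 2, 3] W86 rfl (by decide) (evn_rot el [1, 2, 3] [2, 3, 1, 2, 3, 2, 3, 1, 2, 3, 2, 3, 1, 2, 3, 2, 3, 1, 2, 3, 2, 3, 4, 1, 2, 3, 2, 3, 1, 2, 3, 2, 3, 1, 2, 3, 2, 3, 1, 2, 3, 2, 3, 1, 2, 3, 2, 3, 4, 1, 2, 3, 2, 3, 1, 2, 3, 2, 3, 1, 2, 3, 2, 3, 1, 2, 3, 2, 3, 1, 2, 3, 2, 3, 4] xg4_one)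

theorem lf87 : (∀ p ∈ W87, p ∈ cert.LS) ∧ ev el W87 = 1 :=
  leaf_ok cert el hsel [5, 6, 0, 5, 6] W87 rfl (by decide) (evn_rot el [5, 6] [5, 6, 0] (evn_rev el el_sq _ xg1_one))

theorem lf88 : (∀ p ∈ W88, p ∈ cert.LS) ∧ ev el W88 = 1 :=
  leaf_ok cert el hsel [3, 0, 2, 3, 2, 3, 2, 3, 2] W88 rfl (by decide) (evn_rot el [2, 3, 2, 3, 2, 3, 2] [3, 0] (evn_rev el el_sq _ xg0_one))

theorem lf89 : (∀ p ∈ W89, p ∈ cert.LS) ∧ ev el W89 = 1 :=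
  leaf_ok cert el hsel [3, 1, 2, 3, 2, 3, 1, 2, 3, 2, 3, 1, 2, 3, 2, 3, 1, 2, 3, 2, 3, 4, 1, 2, 3, 2, 3, 1, 2, 3, 2, 3, 1, 2, 3, 2, 3, 1, 2, 3, 2, 3, 1, 2, 3, 2, 3, 4, 1, 2, 3, 2, 3, 1, 2, 3, 2, 3, 1, 2, 3, 2, 3, 1, 2, 3, 2, 3, 1, 2, 3, 2, 3, 4, 1, 2, 3, 2] W89 rfl (by decide) (evn_rot el [1, 2, 3, 2] [3, 1, 2, 3, 2, 3, 1, 2, 3, 2, 3, 1, 2, 3, 2, 3, 1, 2, 3, 2, 3, 4, 1, 2, 3, 2, 3, 1, 2, 3, 2, 3, 1, 2, 3, 2, 3, 1, 2, 3, 2, 3, 1, 2, 3, 2, 3, 4, 1, 2, 3, 2, 3, 1, 2, 3, 2, 3, 1, 2, 3, 2, 3, 1, 2, 3, 2, 3, 1, 2, 3, 2, 3, 4] xg4_one)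

theorem tree_ok : cert.tree.All (fun W => (∀ p ∈ W, p ∈ cert.LS) ∧ ev el W = 1) :=
  ⟨⟨⟨⟨⟨⟨⟨lf0, lf64⟩, lf32⟩, ⟨⟨lf16, lf80⟩, lf48⟩⟩, ⟨⟨⟨lf8, lf72⟩, lf40⟩, ⟨⟨lf24, lf88⟩, lf56⟩⟩⟩, ⟨⟨⟨⟨lf4, lf68⟩, lf36⟩, ⟨⟨lf20, lf84⟩, lf52⟩⟩, ⟨⟨⟨lf12, lf76⟩, lf44⟩, ⟨lf28, lf60⟩⟩⟩⟩, ⟨⟨⟨⟨⟨lf2, lf66⟩, lf34⟩, ⟨⟨lf18, lf82⟩, lf50⟩⟩, ⟨⟨⟨lf10, lf74⟩, lf42⟩, ⟨lf26, lf58⟩⟩⟩, ⟨⟨⟨⟨lf6, lf70⟩, lf38⟩, ⟨⟨lf22, lf86⟩, lf54⟩⟩, ⟨⟨⟨lf14, lf78⟩, lf46⟩, ⟨lf30, lf62⟩⟩⟩⟩⟩, ⟨⟨⟨⟨⟨⟨lf1, lf65⟩, lf33⟩, ⟨⟨lf17, lf81⟩, lf49⟩⟩, ⟨⟨⟨lf9, lf73⟩, lf41⟩, ⟨⟨lf25, lf89⟩, lf57⟩⟩⟩, ⟨⟨⟨⟨lf5, lf69⟩, lf37⟩, ⟨⟨lf21, lf85⟩, lf53⟩⟩, ⟨⟨⟨lf13, lf77⟩, lf45⟩, ⟨lf29, lf61⟩⟩⟩⟩, ⟨⟨⟨⟨⟨lf3, lf67⟩, lf35⟩, ⟨⟨lf19, lf83⟩, lf51⟩⟩, ⟨⟨⟨lf11, lf75⟩, lf43⟩, ⟨lf27, lf59⟩⟩⟩, ⟨⟨⟨⟨lf7, lf71⟩, lf39⟩, ⟨⟨lf23, lf87⟩, lf55⟩⟩, ⟨⟨⟨lf15, lf79⟩, lf47⟩, ⟨lf31, lf63⟩⟩⟩⟩⟩⟩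

theorem subs_ok : AllS (fun XZ : List Letter × List Letter => (∀ p ∈ XZ.1, p ∈ cert.LS) ∧ (∀ p ∈ XZ.2, p ∈ cert.LS) ∧
    ev el XZ.1 * ev el XZ.2 ∈ HH) cert.subs :=
  ⟨sub_ok cert el HH hsel [] [0] _ _ rfl rfl (by decide) (hH ▸ smem0), sub_ok cert el HH hsel [] [1] _ _ rfl rfl (by decide) (hH ▸ smem1), sub_ok cert el HH hsel [] [2] _ _ rfl rfl (by decide) (hH ▸ smem2), sub_ok cert el HH hsel [] [3] _ _ rfl rfl (by decide) (hH ▸ smem3), sub_ok cert el HH hsel [] [4] _ _ rfl rfl (by decide) (hH ▸ smem4), sub_ok cert el HH hsel [] [5] _ _ rfl rfl (by decide) (hH ▸ smem5), trivial⟩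

theorem hyp : Hyp cert HH el := ⟨tree_ok, forall_of_allS subs_ok⟩

theorem hrow : ∀ a < cert.M, row cert a = true := by
  intro a ha
  have ha' : a < 7524 := ha
  rcases Nat.lt_or_ge a 1000 with h0 | h0
  · exact loop_spec row_ok0 a (by omega) (by omega)
  rcases Nat.lt_or_ge a 2000 with h1 | h1
  · exact loop_spec row_ok1 a (by omega) (by omega)
  rcases Nat.lt_or_ge a 3000 with h2 | h2
  · exact loop_spec row_ok2 a (by omega) (by omega)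
  rcases Nat.lt_or_ge a 4000 with h3 | h3
  · exact loop_spec row_ok3 a (by omega) (by omega)
  rcases Nat.lt_or_ge a 5000 with h4 | h4
  · exact loop_spec row_ok4 a (by omega) (by omega)
  rcases Nat.lt_or_ge a 6000 with h5 | h5
  · exact loop_spec row_ok5 a (by omega) (by omega)
  rcases Nat.lt_or_ge a 7000 with h6 | h6
  · exact loop_spec row_ok6 a (by omega) (by omega)
  exact loop_spec row_ok7 a (by omega) (by omega)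

theorem hgen : Subgroup.closure {g : Cfsg.Spor.Suz | ∃ p ∈ cert.LS, el p.1 = g} = ⊤ := by
  rw [eq_top_iff, ← PresentedGroup.closure_range_of]
  apply Subgroup.closure_mono
  rintro _ ⟨x, rfl⟩
  exact ⟨sel cert.LS (num x), sel_mem (num_lt x), by rw [hsel _ (num_lt x)]; simp [el, gen_num]⟩

theorem hcov : ∀ x : Cfsg.Spor.Suz, ∃ a < cert.M, al cert a = true ∧ RC HH x (rep cert el a) :=
  cover hyp al0 hrow hgen (fun p hp => ⟨p, hp, (inv_eq_of_mul_eq_one_right (el_sq _)).symm⟩)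

theorem cx_0_1 : ∀ i < 1782, E_0_1 i = i := by
  intro i hi
  exact loop_beq_r cx_0_1_0 i (by omega) (by omega)

theorem cx_0_2 : ∀ i < 1782, E_0_2 i = i := by
  intro i hi
  exact loop_beq_r cx_0_2_0 i (by omega) (by omega)

theorem cx_0_3 : ∀ i < 1782, E_0_3 i = i := by
  intro i hi
  exact loop_beq_r cx_0_3_0 i (by omega) (by omega)

theorem cx_0_4 : ∀ i < 1782, E_0_4 i = i := by
  intro i hi
  exact loop_beq_r cx_0_4_0 i (by omega) (by omega)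

theorem cx_0_5 : ∀ i < 1782, E_0_5 i = i := by
  intro i hi
  exact loop_beq_r cx_0_5_0 i (by omega) (by omega)

theorem cx_0_6 : ∀ i < 1782, E_0_6 i = i := by
  intro i hi
  exact loop_beq_r cx_0_6_0 i (by omega) (by omega)

theorem cx_1_2 : ∀ i < 1782, E_1_2 i = i := by
  intro i hi
  exact loop_beq_r cx_1_2_0 i (by omega) (by omega)

theorem cx_1_3 : ∀ i < 1782, E_1_3 i = i := by
  intro i hi
  exact loop_beq_r cx_1_3_0 i (by omega) (by omega)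

theorem cx_1_4 : ∀ i < 1782, E_1_4 i = i := by
  intro i hi
  exact loop_beq_r cx_1_4_0 i (by omega) (by omega)

theorem cx_1_5 : ∀ i < 1782, E_1_5 i = i := by
  intro i hi
  exact loop_beq_r cx_1_5_0 i (by omega) (by omega)

theorem cx_1_6 : ∀ i < 1782, E_1_6 i = i := by
  intro i hi
  exact loop_beq_r cx_1_6_0 i (by omega) (by omega)

theorem cx_2_3 : ∀ i < 1782, E_2_3 i = i := by
  intro i hi
  exact loop_beq_r cx_2_3_0 i (by omega) (by omega)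

theorem cx_2_4 : ∀ i < 1782, E_2_4 i = i := by
  intro i hi
  exact loop_beq_r cx_2_4_0 i (by omega) (by omega)

theorem cx_2_5 : ∀ i < 1782, E_2_5 i = i := by
  intro i hi
  exact loop_beq_r cx_2_5_0 i (by omega) (by omega)

theorem cx_2_6 : ∀ i < 1782, E_2_6 i = i := by
  intro i hi
  exact loop_beq_r cx_2_6_0 i (by omega) (by omega)

theorem cx_3_4 : ∀ i < 1782, E_3_4 i = i := by
  intro i hi
  exact loop_beq_r cx_3_4_0 i (by omega) (by omega)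

theorem cx_3_5 : ∀ i < 1782, E_3_5 i = i := by
  intro i hi
  exact loop_beq_r cx_3_5_0 i (by omega) (by omega)

theorem cx_3_6 : ∀ i < 1782, E_3_6 i = i := by
  intro i hi
  exact loop_beq_r cx_3_6_0 i (by omega) (by omega)

theorem cx_4_5 : ∀ i < 1782, E_4_5 i = i := by
  intro i hi
  exact loop_beq_r cx_4_5_0 i (by omega) (by omega)

theorem cx_4_6 : ∀ i < 1782, E_4_6 i = i := by
  intro i hi
  exact loop_beq_r cx_4_6_0 i (by omega) (by omega)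

theorem cx_5_6 : ∀ i < 1782, E_5_6 i = i := by
  intro i hi
  exact loop_beq_r cx_5_6_0 i (by omega) (by omega)

theorem ex_0 : ∀ i < 1782, X_0 i = i := by
  intro i hi
  exact loop_beq_r ex_0_0 i (by omega) (by omega)

theorem ex_1 : ∀ i < 1782, X_1 i = i := by
  intro i hi
  exact loop_beq_r ex_1_0 i (by omega) (by omega)

theorem ex_2 : ∀ i < 1782, X_2 i = i := by
  intro i hi
  exact loop_beq_r ex_2_0 i (by omega) (by omega)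

theorem ex_3 : ∀ i < 1782, X_3 i = i := by
  intro i hi
  exact loop_beq_r ex_3_0 i (by omega) (by omega)

theorem ex_4 : ∀ i < 1782, X_4 i = i := by
  intro i hi
  exact loop_beq_r ex_4_0 i (by omega) (by omega)

theorem hOK : OKB cB num := by
  intro x
  cases x
  · exact loop_inv inv_0
  · exact loop_inv inv_1
  · exact loop_inv inv_2
  · exact loop_inv inv_3
  · exact loop_inv inv_4
  · exact loop_inv inv_5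
  · exact loop_inv inv_6

noncomputable def σ : Gen → Equiv.Perm (Fin cB.N) := sg hOK

theorem σ_sq (x : Gen) : σ x * σ x = 1 := sg_mul_self hOK x

theorem px_0_1 : (σ .a * σ .b) ^ 5 = 1 := pair_of_check hOK .a .b 5 cx_0_1

theorem px_0_2 : (σ .a * σ .c) ^ 2 = 1 := pair_of_check hOK .a .c 2 cx_0_2

theorem px_0_3 : (σ .a * σ .d) ^ 2 = 1 := pair_of_check hOK .a .d 2 cx_0_3

theorem px_0_4 : (σ .a * σ .e) ^ 2 = 1 := pair_of_check hOK .a .e 2 cx_0_4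

theorem px_0_5 : (σ .a * σ .f) ^ 2 = 1 := pair_of_check hOK .a .f 2 cx_0_5

theorem px_0_6 : (σ .a * σ .g) ^ 2 = 1 := pair_of_check hOK .a .g 2 cx_0_6

theorem px_1_2 : (σ .b * σ .c) ^ 3 = 1 := pair_of_check hOK .b .c 3 cx_1_2

theorem px_1_3 : (σ .b * σ .d) ^ 2 = 1 := pair_of_check hOK .b .d 2 cx_1_3

theorem px_1_4 : (σ .b * σ .e) ^ 2 = 1 := pair_of_check hOK .b .e 2 cx_1_4

theorem px_1_5 : (σ .b * σ .f) ^ 3 = 1 := pair_of_check hOK .b .f 3 cx_1_5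

theorem px_1_6 : (σ .b * σ .g) ^ 3 = 1 := pair_of_check hOK .b .g 3 cx_1_6

theorem px_2_3 : (σ .c * σ .d) ^ 8 = 1 := pair_of_check hOK .c .d 8 cx_2_3

theorem px_2_4 : (σ .c * σ .e) ^ 2 = 1 := pair_of_check hOK .c .e 2 cx_2_4

theorem px_2_5 : (σ .c * σ .f) ^ 2 = 1 := pair_of_check hOK .c .f 2 cx_2_5

theorem px_2_6 : (σ .c * σ .g) ^ 2 = 1 := pair_of_check hOK .c .g 2 cx_2_6

theorem px_3_4 : (σ .d * σ .e) ^ 3 = 1 := pair_of_check hOK .d .e 3 cx_3_4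

theorem px_3_5 : (σ .d * σ .f) ^ 2 = 1 := pair_of_check hOK .d .f 2 cx_3_5

theorem px_3_6 : (σ .d * σ .g) ^ 2 = 1 := pair_of_check hOK .d .g 2 cx_3_6

theorem px_4_5 : (σ .e * σ .f) ^ 2 = 1 := pair_of_check hOK .e .f 2 cx_4_5

theorem px_4_6 : (σ .e * σ .g) ^ 2 = 1 := pair_of_check hOK .e .g 2 cx_4_6

theorem px_5_6 : (σ .f * σ .g) ^ 4 = 1 := pair_of_check hOK .f .g 4 cx_5_6

theorem cox_all : ∀ x y : Gen, (σ x * σ y) ^ coxLabel edges x y = 1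
  | .a, .a => by rw [σ_sq]; simp
  | .a, .b => px_0_1
  | .a, .c => px_0_2
  | .a, .d => px_0_3
  | .a, .e => px_0_4
  | .a, .f => px_0_5
  | .a, .g => px_0_6
  | .b, .a => cox_swap (σ_sq _) (σ_sq _) px_0_1
  | .b, .b => by rw [σ_sq]; simp
  | .b, .c => px_1_2
  | .b, .d => px_1_3
  | .b, .e => px_1_4
  | .b, .f => px_1_5
  | .b, .g => px_1_6
  | .c, .a => cox_swap (σ_sq _) (σ_sq _) px_0_2
  | .c, .b => cox_swap (σ_sq _) (σ_sq _) px_1_2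
  | .c, .c => by rw [σ_sq]; simp
  | .c, .d => px_2_3
  | .c, .e => px_2_4
  | .c, .f => px_2_5
  | .c, .g => px_2_6
  | .d, .a => cox_swap (σ_sq _) (σ_sq _) px_0_3
  | .d, .b => cox_swap (σ_sq _) (σ_sq _) px_1_3
  | .d, .c => cox_swap (σ_sq _) (σ_sq _) px_2_3
  | .d, .d => by rw [σ_sq]; simp
  | .d, .e => px_3_4
  | .d, .f => px_3_5
  | .d, .g => px_3_6
  | .e, .a => cox_swap (σ_sq _) (σ_sq _) px_0_4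
  | .e, .b => cox_swap (σ_sq _) (σ_sq _) px_1_4
  | .e, .c => cox_swap (σ_sq _) (σ_sq _) px_2_4
  | .e, .d => cox_swap (σ_sq _) (σ_sq _) px_3_4
  | .e, .e => by rw [σ_sq]; simp
  | .e, .f => px_4_5
  | .e, .g => px_4_6
  | .f, .a => cox_swap (σ_sq _) (σ_sq _) px_0_5
  | .f, .b => cox_swap (σ_sq _) (σ_sq _) px_1_5
  | .f, .c => cox_swap (σ_sq _) (σ_sq _) px_2_5
  | .f, .d => cox_swap (σ_sq _) (σ_sq _) px_3_5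
  | .f, .e => cox_swap (σ_sq _) (σ_sq _) px_4_5
  | .f, .f => by rw [σ_sq]; simp
  | .f, .g => px_5_6
  | .g, .a => cox_swap (σ_sq _) (σ_sq _) px_0_6
  | .g, .b => cox_swap (σ_sq _) (σ_sq _) px_1_6
  | .g, .c => cox_swap (σ_sq _) (σ_sq _) px_2_6
  | .g, .d => cox_swap (σ_sq _) (σ_sq _) px_3_6
  | .g, .e => cox_swap (σ_sq _) (σ_sq _) px_4_6
  | .g, .f => cox_swap (σ_sq _) (σ_sq _) px_5_6
  | .g, .g => by rw [σ_sq]; simp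

theorem pe_0 : (xg0.map σ).prod = 1 := prod_eq_one hOK xg0 ex_0

theorem pe_1 : (xg1.map σ).prod = 1 := prod_eq_one hOK xg1 ex_1

theorem pe_2 : (xg2.map σ).prod = 1 := prod_eq_one hOK xg2 ex_2

theorem pe_3 : (xg3.map σ).prod = 1 := prod_eq_one hOK xg3 ex_3

theorem pe_4 : (xg4.map σ).prod = 1 := prod_eq_one hOK xg4 ex_4

noncomputable def ψ : Cfsg.Spor.Suz →* Equiv.Perm (Fin cB.N) :=
  PresentedGroup.toGroup (lift_rels edges extra σ cox_all (lift_extra σ σ_sq pe_0 pe_1 pe_2 pe_3 pe_4))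

theorem hψ : ∀ k < 7, ∀ i : Fin cB.N, (ψ (el k) i).1 = fB cB k i.1 := by
  intro k hk i
  have e : ψ (el k) = σ (gen k) := PresentedGroup.toGroup.of _
  rw [e]
  show fB cB (num (gen k)) i.1 = _
  rw [num_gen k hk]

def z : Fin cB.N := ⟨0, by decide⟩

theorem hsg : ∀ w ∈ sgw, ∀ k ∈ w, k < 7 := by decide

theorem h1 : ∀ s ∈ PresentedGroup.mk RS '' SS, ∃ w ∈ sgw, s = evn el w := by
  rintro _ ⟨s, hs, rfl⟩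
  simp only [SS, Set.mem_insert_iff, Set.mem_singleton_iff] at hs
  rcases hs with rfl | rfl | rfl | rfl | rfl | rfl
  · exact ⟨sg0.map num, by decide, sgen0⟩
  · exact ⟨sg1.map num, by decide, sgen1⟩
  · exact ⟨sg2.map num, by decide, sgen2⟩
  · exact ⟨sg3.map num, by decide, sgen3⟩
  · exact ⟨sg4.map num, by decide, sgen4⟩
  · exact ⟨sg5.map num, by decide, sgen5⟩

theorem h2 : ∀ w ∈ sgw, evn el w ∈ Subgroup.closure (PresentedGroup.mk RS '' SS) :=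
  forall_of_allS (l := sgw) ⟨smem0, smem1, smem2, smem3, smem4, smem5, trivial⟩

theorem hfix : ∀ h ∈ HH, ψ h z = z := by
  intro h hh
  rw [hH] at hh
  revert h
  apply fix_of_closure
  intro s hs
  obtain ⟨w, hw, rfl⟩ := h1 s hs
  apply Fin.ext
  rw [psi_evn ψ hψ w (hsg w hw)]
  have := chkCl_spec fix_ok w hw
  show app cB w 0 = 0
  omega

theorem exφ : ∃ φ : Cfsg.Spor.Suz ⧸ HH → Fin cB.N, Function.Bijective φ ∧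
    ∀ (g : Cfsg.Spor.Suz) (q : Cfsg.Spor.Suz ⧸ HH), φ (g • q) = ψ g (φ q) :=
  main_equiv (P := cert) (FIN := tFIN) (LAB := tLAB) (L := 7) ψ z rfl (fun k _ => el_sq k) hψ hcov
    (loop_all link_ok) (loop_all lab_ok) hfix

theorem index_eq : HH.index = 1782 := by
  obtain ⟨φ, hφ, _⟩ := exφ
  rw [index_of_equiv HH hφ]
  simp [cB]

theorem orb_0 : {i | ∃ h ∈ HH, ψ h ⟨1, by decide⟩ = i} = {i : Fin cB.N | 1 ≤ i.1 ∧ i.1 < 417} := by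
  rw [hH]
  exact orbit_set_of_checks (L := 7) ψ hψ hsg h1 h2 ⟨1, by decide⟩ rfl (by decide) cl_0 re_0

theorem orbc_0 (φ : Cfsg.Spor.Suz ⧸ HH → Fin cB.N) (hφ : Function.Bijective φ)
    (heq : ∀ (g : Cfsg.Spor.Suz) (q : Cfsg.Spor.Suz ⧸ HH), φ (g • q) = ψ g (φ q)) (q : Cfsg.Spor.Suz ⧸ HH)
    (hq : φ q = ⟨1, by decide⟩) : (MulAction.orbit HH q).ncard = 416 := by
  rw [orbit_ncard HH ψ hφ heq, hq, orb_0, ncard_interval (by decide)]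

theorem orb_1 : {i | ∃ h ∈ HH, ψ h ⟨417, by decide⟩ = i} = {i : Fin cB.N | 417 ≤ i.1 ∧ i.1 < 1782} := by
  rw [hH]
  exact orbit_set_of_checks (L := 7) ψ hψ hsg h1 h2 ⟨417, by decide⟩ rfl (by decide) cl_1 re_1

theorem orbc_1 (φ : Cfsg.Spor.Suz ⧸ HH → Fin cB.N) (hφ : Function.Bijective φ)
    (heq : ∀ (g : Cfsg.Spor.Suz) (q : Cfsg.Spor.Suz ⧸ HH), φ (g • q) = ψ g (φ q)) (q : Cfsg.Spor.Suz ⧸ HH)
    (hq : φ q = ⟨417, by decide⟩) : (MulAction.orbit HH q).ncard = 1365 := by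
  rw [orbit_ncard HH ψ hφ heq, hq, orb_1, ncard_interval (by decide)]

end Cfsg.Agent.Lib.Helper19.Suzc
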